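import Cfsg.Agent.Lib.Helper19.Sp4.Abs

/-! Abstract lemmas: the action on an invariant finite family of points, and an isomorphism
obtained by counting. -/

set_option autoImplicit false

namespace Cfsg.Agent.Lib.Helper19.O7

section nzrA
variable {G X Y : Type*} [Group G] [Finite X] (φ : G →* Equiv.Perm Y) (T : X → Y)
  (hT : Function.Injective T)

include hT in
theorem nzrA_inv {g : G} (h : ∀ j, ∃ k, φ g (T j) = T k) : ∀ j, ∃ k, φ g⁻¹ (T j) = T k := by
  choose f hf using h
  have hinj : Function.Injective f := by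
    intro a b hab
    apply hT
    have h1 := hf a
    rw [hab, ← hf b] at h1
    exact (φ g).injective h1
  have hsurj := Finite.injective_iff_surjective.1 hinj
  intro j
  obtain ⟨k, rfl⟩ := hsurj j
  refine ⟨k, ?_⟩
  rw [← hf k, map_inv]
  simp

/-- the elements permuting the family `T` -/
def nzrA : Subgroup G where
  carrier := {g | ∀ j, ∃ k, φ g (T j) = T k}
  one_mem' := fun j => ⟨j, by simp⟩
  mul_mem' := by
    intro a b ha hb j
    obtain ⟨k, hk⟩ := hb j
    obtain ⟨l, hl⟩ := ha k
    refine ⟨l, ?_⟩
    rw [← hl, ← hk, map_mul, Equiv.Perm.mul_apply]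
  inv_mem' := fun h => nzrA_inv φ T hT h

noncomputable def actA (g : nzrA φ T hT) (j : X) : X := (g.2 j).choose

theorem actA_spec (g : nzrA φ T hT) (j : X) : T (actA φ T hT g j) = φ g.1 (T j) :=
  ((g.2 j).choose_spec).symm

@[instance_reducible] noncomputable def nzrAAct : MulAction (nzrA φ T hT) X where
  smul := actA φ T hT
  one_smul j := hT (by
    show T (actA φ T hT 1 j) = T j
    rw [actA_spec φ T hT]; simp)
  mul_smul g h j := hT (by
    show T (actA φ T hT (g * h) j) = T (actA φ T hT g (actA φ T hT h j))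
    rw [actA_spec φ T hT, actA_spec φ T hT, actA_spec φ T hT]
    simp)

/-- the permutation representation on the index set -/
noncomputable def rhoA : nzrA φ T hT →* Equiv.Perm X :=
  @MulAction.toPermHom (nzrA φ T hT) X _ (nzrAAct φ T hT)

theorem rhoA_spec (g : nzrA φ T hT) (j : X) : T (rhoA φ T hT g j) = φ g.1 (T j) :=
  actA_spec φ T hT g j

theorem rhoA_eq (g : nzrA φ T hT) (j k : X) (h : φ g.1 (T j) = T k) : rhoA φ T hT g j = k := by
  apply hT
  rw [rhoA_spec φ T hT, h]

end nzrA

theorem iso_of_count {K S X : Type*} [Group K] [Group S] [Finite K] [Finite X]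
    (ρ : K →* Equiv.Perm X) (σ : S →* Equiv.Perm X) (hσ : Function.Injective σ) (m : ℕ)
    (hS : Nat.card S = m) (hK : Nat.card K = m) (hge : m ≤ Nat.card ρ.range)
    (hle : ρ.range ≤ σ.range) : Nonempty (K ≃* S) := by
  classical
  have hcσ : Nat.card σ.range = m := by
    rw [← hS]
    exact (Nat.card_congr (MonoidHom.ofInjective hσ).toEquiv).symm
  have he : ρ.range = σ.range := Subgroup.eq_of_le_of_card_ge hle (by rw [hcσ]; exact hge)
  have hbij : Function.Bijective ρ.rangeRestrict := by
    rw [Nat.bijective_iff_surjective_and_card]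
    refine ⟨ρ.rangeRestrict_surjective, ?_⟩
    apply le_antisymm
    · rw [hK]; exact hge
    · exact Nat.card_le_card_of_surjective _ ρ.rangeRestrict_surjective
  exact ⟨((MulEquiv.ofBijective ρ.rangeRestrict hbij).trans (MulEquiv.subgroupCongr he)).trans
    (MonoidHom.ofInjective hσ).symm⟩

end Cfsg.Agent.Lib.Helper19.O7
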