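import Cfsg.Agent.Lib.Helper19.OrdFi22.Main
import Cfsg.Agent.S0292
import Cfsg.Agent.S0295
import Cfsg.Agent.Lib.Helper19.O7.Abs
import Cfsg.Agent.Lib.Helper19.O7.Ck

/-! The subgroup `⟨b, …, i⟩` of `Fi22` is isomorphic to `PΩ₇(3)`. -/

set_option autoImplicit false
set_option maxRecDepth 1000000

namespace Cfsg.Agent.Lib.Helper19.O7

open Cfsg.Agent.Lib.Helper19.TCS
open Cfsg.Agent.Lib.Helper19.TC2 (KW KK mem_KK ab_eq_of_odd one_of_odd_pow)
open Cfsg.Agent.Lib.Helper19.PresFi22 (el)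
open Cfsg.Agent.Lib.Helper19
open Matrix

/-! ### the matrix side -/

theorem Q_vt (j : Fin 351) : Q7 (vt j.1) = 2 := (okT2 j).1

/-- the negative reflections -/
def Tm (j : Fin 351) : G0 := tG (vt j.1) (Q_vt j)

theorem Tm_inj : Function.Injective Tm := by
  intro j k h
  rcases eq_or_neg_of_tG (Q_vt j) (Q_vt k) h with e | e
  · apply Fin.ext; rw [← (okT2 j).2.1, e, (okT2 k).2.1]
  · apply Fin.ext; rw [← (okT2 j).2.1, e, (okT2 k).2.2]

theorem complete (v : V7) (hv : Q7 v = 2) : ∃ k : Fin 351, v = vt k.1 ∨ v = -vt k.1 := by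
  have h := okT1 ⟨enc7 v, enc7_lt v⟩
  simp only [dec7_enc7] at h
  obtain ⟨h1, h2⟩ := h hv
  exact ⟨⟨_, h1⟩, h2⟩

theorem conj_Tm (g : G0) (j k : Fin 351)
    (h : (g.1 : Matrix I7 I7 F3) *ᵥ vt j.1 = vt k.1 ∨ (g.1 : Matrix I7 I7 F3) *ᵥ vt j.1 = -vt k.1) :
    g * Tm j = Tm k * g := conj_tG g _ (Q_vt j) _ (Q_vt k) h

theorem all_nzr (g : G0) : g ∈ Sp4.nzr Tm Tm_inj := by
  intro j
  have hq : Q7 ((g.1 : Matrix I7 I7 F3) *ᵥ vt j.1) = 2 := by rw [G0_Q, Q_vt]
  obtain ⟨k, hk⟩ := complete _ hq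
  refine ⟨k, ?_⟩
  rw [conj_Tm g j k hk]
  group

/-- the action of the isometry group on the 351 points -/
noncomputable def sig0 : G0 →* Equiv.Perm (Fin 351) :=
  (Sp4.rho Tm Tm_inj).comp ((MonoidHom.id G0).codRestrict (Sp4.nzr Tm Tm_inj) all_nzr)

theorem sig0_eq (g : G0) (j k : Fin 351) (h : g * Tm j = Tm k * g) : sig0 g j = k :=
  Sp4.rho_eq Tm Tm_inj ⟨g, all_nzr g⟩ j k h

theorem sig0_spec (g : G0) (j : Fin 351) : Tm (sig0 g j) = g * Tm j * g⁻¹ :=
  Sp4.rho_spec Tm Tm_inj ⟨g, all_nzr g⟩ j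

/-- the eight generators -/
def A (k : ℕ) : G0 := if h : k < 8 then Tm ⟨selN ptl k, ptl_lt ⟨k, h⟩⟩ else 1

theorem A_coe {k : ℕ} (hk : k < 8) (x : V7) :
    ((A k).1 : Matrix I7 I7 F3) *ᵥ x = tf (vt (selN ptl k)) x := by
  unfold A
  rw [dif_pos hk]
  exact tM_mulVec _ _

theorem fR_lt {k j : ℕ} (hk : k < 8) (hj : j < 351) : fB cR k j < 351 :=
  blt_iff.1 (loop_spec (loop_spec okR_lt k (Nat.zero_le _) (by omega)) j (Nat.zero_le _) (by omega))

theorem sig0_A : ∀ k < 8, ∀ j : Fin 351, (sig0 (A k) j).1 = fB cR k j.1 := by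
  intro k hk j
  have : sig0 (A k) j = ⟨fB cR k j.1, fR_lt hk j.2⟩ := by
    apply sig0_eq
    apply conj_Tm
    rw [A_coe hk]
    exact okM ⟨k, hk⟩ j
  rw [this]

theorem A_word (w : List ℕ) (hw : ∀ k ∈ w, k < 8) (c : ℕ) :
    ((evn A w).1 : Matrix I7 I7 F3) *ᵥ dec7 c = dec7 (appc w c) := by
  induction w with
  | nil =>
    show ((1 : G0).1 : Matrix I7 I7 F3) *ᵥ dec7 c = dec7 c
    exact one_mulVec _
  | cons k w ih =>
    have e : evn A (k :: w) = A k * evn A w := by simp [evn]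
    rw [e, G0_mul_coe, ih (fun j hj => hw j (by simp [hj])), A_coe (hw k (by simp)), appc_cons,
      dec7_tc]

theorem single_code : ∀ i : I7, ∃ c ∈ bas, (Pi.single i 1 : V7) = dec7 c := by decide +kernel

theorem word_one (w : List ℕ) (hw : w ∈ rels) : evn A w = 1 := by
  apply Subtype.ext
  apply Units.ext
  apply Matrix.ext_of_mulVec_single
  intro i
  obtain ⟨c, hc, e⟩ := single_code i
  rw [e]
  show ((evn A w).1 : Matrix I7 I7 F3) *ᵥ dec7 c = (1 : Matrix I7 I7 F3) *ᵥ dec7 c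
  rw [A_word w (rels_lt w hw), okRel w hw c hc, one_mulVec]

theorem A_sq (k : ℕ) : A k * A k = 1 := by
  unfold A
  split
  · apply Subtype.ext
    apply Units.ext
    exact tM_sq _ (Q_vt _)
  · simp

abbrev Om : Subgroup G0 := commutator G0

theorem A_mem : ∀ k < 8, A k ∈ Om := by
  have sq : ∀ k, Abelianization.of (A k) * Abelianization.of (A k) = 1 := fun k => by
    rw [← map_mul, A_sq, map_one]
  have adj : ∀ s t, [s, t, s, t, s, t] ∈ rels →
      Abelianization.of (A s) = Abelianization.of (A t) := by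
    intro s t h
    apply ab_eq_of_odd (sq s) (sq t) 1
    rw [← map_mul, ← map_pow]
    have := word_one _ h
    have e : evn A [s, t, s, t, s, t] = (A s * A t) ^ (2 * 1 + 1) := by
      simp [evn, pow_succ, mul_assoc]
    rw [← e, this, map_one]
  have e01 := adj 0 1 (by decide)
  have e12 := adj 1 2 (by decide)
  have e23 := adj 2 3 (by decide)
  have e34 := adj 3 4 (by decide)
  have e45 := adj 4 5 (by decide)
  have e26 := adj 2 6 (by decide)
  have e67 := adj 6 7 (by decide)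
  have all : ∀ k < 8, Abelianization.of (A k) = Abelianization.of (A 2) := by
    intro k hk
    interval_cases k
    · exact e01.trans e12
    · exact e12
    · rfl
    · exact e23.symm
    · exact e34.symm.trans e23.symm
    · exact e45.symm.trans (e34.symm.trans e23.symm)
    · exact e26.symm
    · exact e67.symm.trans e26.symm
  have h1 : Abelianization.of (A 2) = 1 := by
    have h2 := congrArg Abelianization.of
      (word_one ((List.replicate 9 [0, 1, 2, 3, 4, 5, 6]).flatten) (by decide))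
    unfold evn at h2
    rw [map_list_prod, List.map_map, map_one,
      List.prod_eq_pow_card _ (Abelianization.of (A 2))] at h2
    · exact one_of_odd_pow (sq 2) 31 h2
    · intro y hy
      obtain ⟨x, hx, rfl⟩ := List.mem_map.1 hy
      exact all x (rels_lt _ (by decide) x hx)
  intro k hk
  apply (QuotientGroup.eq_one_iff (A k)).1
  exact (all k hk).trans h1

theorem Tm_mem (j : Fin 351) : Tm j ∈ Om := by
  obtain ⟨j, hj⟩ := j
  induction j using Nat.strong_induction_on with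
  | _ j ih =>
    rcases okTree ⟨j, hj⟩ with h | ⟨h1, h2, h3⟩
    · have h' : j = 0 := h
      subst h'
      have := A_mem 0 (by decide)
      unfold A at this
      rw [dif_pos (by decide)] at this
      exact this
    · have hp := ih _ h1 (by have : fld 12 4095 tPAR j < j := h1; omega)
      have hs := sig0_spec (A (fld 12 4095 tLET j)) ⟨fld 12 4095 tPAR j, by
        have : fld 12 4095 tPAR j < j := h1; omega⟩
      have he : sig0 (A (fld 12 4095 tLET j)) ⟨fld 12 4095 tPAR j, by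
        have : fld 12 4095 tPAR j < j := h1; omega⟩ = ⟨j, hj⟩ := by
        apply Fin.ext
        rw [sig0_A _ h2]
        exact h3
      rw [he] at hs
      rw [hs]
      exact Om.mul_mem (Om.mul_mem (A_mem _ h2) hp) (Om.inv_mem (A_mem _ h2))

noncomputable def sig1 : Om →* Equiv.Perm (Fin 351) := sig0.comp Om.subtype

theorem center_le : ∀ z ∈ Subgroup.center Om, sig1 z = 1 := by
  intro z hz
  ext j
  have h := Subgroup.mem_center_iff.1 hz ⟨Tm j, Tm_mem j⟩
  have h' : z.1 * Tm j = Tm j * z.1 := (congrArg Subtype.val h).symm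
  have : sig0 z.1 j = j := sig0_eq z.1 j j h'
  exact congrArg Fin.val this

abbrev PO := Cfsg.POmega (ZMod 3) (Cfsg.quadFormOdd 3 (ZMod 3))

noncomputable def sigb : PO →* Equiv.Perm (Fin 351) :=
  QuotientGroup.lift (Subgroup.center Om) sig1 center_le

theorem sigb_mk (x : Om) : sigb (QuotientGroup.mk x) = sig0 x.1 := rfl

theorem r0_ne : fB cR 0 2 ≠ 2 := by decide +kernel

theorem odd3 : Odd (Fintype.card (ZMod 3)) := by rw [ZMod.card]; decide

theorem sigb_inj : Function.Injective sigb := by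
  have hs : IsSimpleGroup PO := Cfsg.Agent.S0295.result odd3 3 le_rfl
  rw [← MonoidHom.ker_eq_bot_iff]
  rcases sigb.normal_ker.eq_bot_or_eq_top with h | h
  · exact h
  · exfalso
    have h1 : (QuotientGroup.mk (⟨A 0, A_mem 0 (by decide)⟩ : Om) : PO) ∈ sigb.ker := by
      rw [h]; trivial
    rw [MonoidHom.mem_ker, sigb_mk] at h1
    have h2 := sig0_A 0 (by decide) 2
    rw [h1] at h2
    exact r0_ne h2.symm

theorem card_PO : Nat.card PO = 4585351680 := by
  have h := Cfsg.Agent.S0292.result (F := ZMod 3) (q := 3) (ZMod.card 3) (by decide) 3 le_rfl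
  have e : 3 ^ 3 ^ 2 * ∏ i ∈ Finset.range 3, (3 ^ (2 * (i + 1)) - 1) = 2 * 4585351680 := by decide +kernel
  rw [e] at h
  exact Nat.eq_of_mul_eq_mul_left (by decide) h

/-! ### the side of `Fi22` -/

theorem E_lt (j : Fin 351) : fld 12 4095 tE j.1 < Fi22c.cB.N :=
  blt_iff.1 (loop_spec okE_lt j.1 (Nat.zero_le _) (by have := j.2; omega))

def emb (j : Fin 351) : Fin Fi22c.cB.N := ⟨fld 12 4095 tE j.1, E_lt j⟩

theorem emb_inj : Function.Injective emb := by
  intro j k h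
  apply Fin.ext
  exact List.inj_on_of_nodup_map okE_nd (List.mem_range.2 j.2) (List.mem_range.2 k.2)
    (congrArg Fin.val h)

theorem gen_emb {k : ℕ} (hk : k < 8) (j : Fin 351) :
    Fi22c.ψ (el (k + 1)) (emb j) = emb ⟨fB cR k j.1, fR_lt hk j.2⟩ := by
  apply Fin.ext
  rw [Fi22c.hψ (k + 1) (by omega)]
  have := loop_spec (loop_spec okE k (Nat.zero_le _) (by omega)) j.1 (Nat.zero_le _)
    (by have := j.2; omega)
  rwa [Nat.beq_eq] at this

theorem K_le : Fi22b.HH ≤ nzrA Fi22c.ψ emb emb_inj := by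
  rw [OrdFi22.HH_eq]
  unfold KK
  rw [Subgroup.closure_le]
  rintro _ ⟨k, hk, rfl⟩
  have : ∃ k', k' < 8 ∧ k = k' + 1 := by
    simp only [List.mem_cons, List.not_mem_nil, or_false] at hk
    exact ⟨k - 1, by omega, by omega⟩
  obtain ⟨k', hk', rfl⟩ := this
  intro j
  exact ⟨_, gen_emb hk' j⟩

/-- the action of the subgroup on the 351 points -/
noncomputable def rhoK : Fi22b.HH →* Equiv.Perm (Fin 351) :=
  (rhoA Fi22c.ψ emb emb_inj).comp (Subgroup.inclusion K_le)

theorem el_mem {k : ℕ} (hk : k < 8) : el (k + 1) ∈ Fi22b.HH := by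
  rw [OrdFi22.HH_eq]
  apply mem_KK
  interval_cases k <;> decide

noncomputable def kel (k : ℕ) : Fi22b.HH := if h : k < 8 then ⟨el (k + 1), el_mem h⟩ else 1

theorem rhoK_kel : ∀ k < 8, ∀ j : Fin 351, (rhoK (kel k) j).1 = fB cR k j.1 := by
  intro k hk j
  have : rhoK (kel k) j = ⟨fB cR k j.1, fR_lt hk j.2⟩ := by
    apply rhoA_eq
    unfold kel
    rw [dif_pos hk]
    exact gen_emb hk j
  rw [this]

noncomputable def rel (k : ℕ) : Equiv.Perm (Fin 351) := rhoK (kel k)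

theorem card_A : 4585351680 ≤ Nat.card (KW rel ws0) := by
  have hJ1 : ∀ w ∈ ws1, ∀ k ∈ w, k < 8 := fun w hw => hJ0 w (hs1 w hw)
  have hJ2 : ∀ w ∈ ws2, ∀ k ∈ w, k < 8 := fun w hw => hJ1 w (hs2 w hw)
  have hJ3 : ∀ w ∈ ws3, ∀ k ∈ w, k < 8 := fun w hw => hJ2 w (hs3 w hw)
  have hJ4 : ∀ w ∈ ws4, ∀ k ∈ w, k < 8 := fun w hw => hJ3 w (hs4 w hw)
  have hJ5 : ∀ w ∈ ws5, ∀ k ∈ w, k < 8 := fun w hw => hJ4 w (hs5 w hw)
  have s0 : 351 * Nat.card (KW rel ws1) ≤ Nat.card (KW rel ws0) :=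
    Sp4.lb_step (B := cR) (el := rel) rhoK_kel ws0 ws1 hJ0 hs1 0 (by decide) hf1 pa0 351 hl0 hn0
  have s1 : 224 * Nat.card (KW rel ws2) ≤ Nat.card (KW rel ws1) :=
    Sp4.lb_step (B := cR) (el := rel) rhoK_kel ws1 ws2 hJ1 hs2 1 (by decide) hf2 pa1 224 hl1 hn1
  have s2 : 81 * Nat.card (KW rel ws3) ≤ Nat.card (KW rel ws2) :=
    Sp4.lb_step (B := cR) (el := rel) rhoK_kel ws2 ws3 hJ2 hs3 3 (by decide) hf3 pa2 81 hl2 hn2
  have s3 : 30 * Nat.card (KW rel ws4) ≤ Nat.card (KW rel ws3) :=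
    Sp4.lb_step (B := cR) (el := rel) rhoK_kel ws3 ws4 hJ3 hs4 5 (by decide) hf4 pa3 30 hl3 hn3
  have s4 : 12 * Nat.card (KW rel ws5) ≤ Nat.card (KW rel ws4) :=
    Sp4.lb_step (B := cR) (el := rel) rhoK_kel ws4 ws5 hJ4 hs5 6 (by decide) hf5 pa4 12 hl4 hn4
  have s5 : 2 * Nat.card (KW rel []) ≤ Nat.card (KW rel ws5) :=
    Sp4.lb_step (B := cR) (el := rel) rhoK_kel ws5 [] hJ5 (by simp) 10 (by decide) (by simp) pa5 2
      hl5 hn5
  have s6 : 0 < Nat.card (KW rel []) := Nat.card_pos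
  omega

theorem evn_mem' {G : Type*} [Group G] (K : Subgroup G) (f : ℕ → G) (L : ℕ)
    (hf : ∀ k < L, f k ∈ K) (w : List ℕ) (hw : ∀ k ∈ w, k < L) : evn f w ∈ K := by
  apply Subgroup.list_prod_mem
  intro x hx
  rw [List.mem_map] at hx
  obtain ⟨k, hk, rfl⟩ := hx
  exact hf k (hw k hk)

theorem A_le_rho : KW rel ws0 ≤ rhoK.range := by
  unfold KW
  rw [Subgroup.closure_le]
  rintro _ ⟨w, hw, rfl⟩
  exact evn_mem' rhoK.range rel 8 (fun k _ => ⟨_, rfl⟩) w (hJ0 w hw)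

theorem card_range : 4585351680 ≤ Nat.card rhoK.range :=
  card_A.trans (Subgroup.card_le_of_le A_le_rho)

theorem kel_sig {k : ℕ} (hk : k < 8) : rhoK (kel k) ∈ sigb.range := by
  refine ⟨QuotientGroup.mk (⟨A k, A_mem k hk⟩ : Om), ?_⟩
  rw [sigb_mk]
  ext j
  rw [sig0_A k hk, rhoK_kel k hk]

theorem range_le : rhoK.range ≤ sigb.range := by
  have h : Fi22b.HH ≤ (sigb.range.comap rhoK).map Fi22b.HH.subtype := by
    conv_lhs => rw [OrdFi22.HH_eq]
    unfold KK
    rw [Subgroup.closure_le]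
    rintro _ ⟨k, hk, rfl⟩
    have : ∃ k', k' < 8 ∧ k = k' + 1 := by
      simp only [List.mem_cons, List.not_mem_nil, or_false] at hk
      exact ⟨k - 1, by omega, by omega⟩
    obtain ⟨k', hk', rfl⟩ := this
    refine ⟨kel k', kel_sig hk', ?_⟩
    unfold kel
    rw [dif_pos hk']
    rfl
  rintro _ ⟨x, rfl⟩
  obtain ⟨y, hy, e⟩ := h x.2
  have : y = x := Subtype.ext e
  rw [← this]
  exact hy

theorem card_K : Nat.card Fi22b.HH = 4585351680 := by
  rw [OrdFi22.HH_eq]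
  exact OrdFi22.chain.1

instance finK : Finite Fi22b.HH := Nat.finite_of_card_ne_zero (by rw [card_K]; decide)

theorem main : Nonempty (Fi22b.HH ≃* PO) :=
  iso_of_count rhoK sigb sigb_inj 4585351680 card_PO card_K card_range range_le

end Cfsg.Agent.Lib.Helper19.O7
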