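import Mathlib
import Cfsg.Prelude.Def_Classical

/-! Negative reflections in the orthogonal group of dimension seven over the field with three
elements. -/

set_option autoImplicit false

namespace Cfsg.Agent.Lib.Helper19.O7

open Matrix

abbrev F3 := ZMod 3
abbrev I7 := Unit ⊕ (Fin 3 ⊕ Fin 3)
abbrev V7 := I7 → F3
abbrev Q7 : V7 → F3 := Cfsg.quadFormOdd 3 (ZMod 3)
abbrev G0 := Cfsg.isometryGroup (ZMod 3) (Cfsg.quadFormOdd 3 (ZMod 3))

def gam (v : V7) : V7
  | .inl _ => 2 * v (.inl ())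
  | .inr (.inl i) => v (.inr (.inr i))
  | .inr (.inr i) => v (.inr (.inl i))

/-- the polar form -/
def Bf (x v : V7) : F3 := gam v ⬝ᵥ x

theorem Q_add (x y : V7) : Q7 (x + y) = Q7 x + Q7 y + Bf x y := by
  simp only [Cfsg.quadFormOdd, Bf, dotProduct, Fintype.sum_sum_type, Fin.sum_univ_three, gam,
    Pi.add_apply, Finset.univ_unique, Finset.sum_singleton]
  ring

theorem Q_smul (a : F3) (v : V7) : Q7 (a • v) = a ^ 2 * Q7 v := by
  simp only [Cfsg.quadFormOdd, Fin.sum_univ_three, Pi.smul_apply, smul_eq_mul]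
  ring

theorem Q_neg (v : V7) : Q7 (-v) = Q7 v := by
  simp only [Cfsg.quadFormOdd, Fin.sum_univ_three, Pi.neg_apply]
  ring

theorem gam_smul (a : F3) (v : V7) : gam (a • v) = a • gam v := by
  funext i
  rcases i with i | i | i <;> simp [gam]
  ring

theorem Bf_self (v : V7) : Bf v v = 2 * Q7 v := by
  simp only [Cfsg.quadFormOdd, Bf, dotProduct, Fintype.sum_sum_type, Fin.sum_univ_three, gam,
    Finset.univ_unique, Finset.sum_singleton]
  ring

theorem Bf_add_left (x y v : V7) : Bf (x + y) v = Bf x v + Bf y v := dotProduct_add _ _ _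

theorem Bf_smul_left (a : F3) (x v : V7) : Bf (a • x) v = a * Bf x v := by
  unfold Bf
  rw [dotProduct_smul, smul_eq_mul]

theorem Bf_neg_left (x v : V7) : Bf (-x) v = -Bf x v := by
  unfold Bf
  rw [dotProduct_neg]

theorem Bf_smul_right (a : F3) (x v : V7) : Bf x (a • v) = a * Bf x v := by
  unfold Bf
  rw [gam_smul, smul_dotProduct, smul_eq_mul]

theorem Bf_eq (x y : V7) : Bf x y = Q7 (x + y) - Q7 x - Q7 y := by
  rw [Q_add]; ring

/-- the negative reflection as a function -/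
def tf (v x : V7) : V7 := -x - Bf x v • v

/-- the negative reflection as a matrix -/
def tM (v : V7) : Matrix I7 I7 F3 := -(1 + vecMulVec v (gam v))

theorem tM_mulVec (v x : V7) : tM v *ᵥ x = tf v x := by
  unfold tM tf Bf
  rw [neg_mulVec, add_mulVec, one_mulVec, vecMulVec_mulVec]
  funext i
  simp [mul_comm]
  ring

theorem three_zero (a : F3) : a + a + a = 0 := by
  have : (3 : F3) = 0 := by decide
  calc a + a + a = 3 * a := by ring
    _ = 0 := by rw [this, zero_mul]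

theorem tf_tf (v : V7) (hv : Q7 v = 2) (x : V7) : tf v (tf v x) = x := by
  unfold tf
  rw [sub_eq_add_neg (-x), Bf_add_left, Bf_neg_left, Bf_neg_left, Bf_smul_left, Bf_self, hv]
  funext i
  simp only [Pi.sub_apply, Pi.neg_apply, Pi.add_apply, Pi.smul_apply, smul_eq_mul]
  have h := three_zero (Bf x v * v i)
  have h4 : (2 * 2 : F3) = 1 := by decide
  rw [h4]
  linear_combination h

theorem Q_tf (v : V7) (hv : Q7 v = 2) (x : V7) : Q7 (tf v x) = Q7 x := by
  have e : tf v x = -(x + Bf x v • v) := by unfold tf; abel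
  rw [e, Q_neg, Q_add, Q_smul, Bf_smul_right, hv]
  have h := three_zero (Bf x v ^ 2)
  linear_combination h

theorem tM_sq (v : V7) (hv : Q7 v = 2) : tM v * tM v = 1 := by
  apply Matrix.mulVec_injective
  funext x
  rw [← mulVec_mulVec, tM_mulVec, tM_mulVec, tf_tf v hv, one_mulVec]

/-- the negative reflection as an isometry -/
def tG (v : V7) (hv : Q7 v = 2) : G0 :=
  ⟨⟨tM v, tM v, tM_sq v hv, tM_sq v hv⟩, by
    intro u _
    show Q7 (tM v *ᵥ u) = Q7 u
    rw [tM_mulVec, Q_tf v hv]⟩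

theorem tG_coe (v : V7) (hv : Q7 v = 2) : ((tG v hv : G0).1 : Matrix I7 I7 F3) = tM v := rfl

theorem G0_Q (g : G0) (x : V7) : Q7 ((g.1 : Matrix I7 I7 F3) *ᵥ x) = Q7 x := g.2 x x

theorem G0_Bf (g : G0) (x y : V7) :
    Bf ((g.1 : Matrix I7 I7 F3) *ᵥ x) ((g.1 : Matrix I7 I7 F3) *ᵥ y) = Bf x y := by
  rw [Bf_eq, Bf_eq, ← mulVec_add, G0_Q, G0_Q, G0_Q]

theorem G0_ext {g h : G0} (e : ∀ x : V7, (g.1 : Matrix I7 I7 F3) *ᵥ x = (h.1 : Matrix I7 I7 F3) *ᵥ x) :
    g = h := by
  apply Subtype.ext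
  apply Units.ext
  apply Matrix.mulVec_injective
  funext x
  exact e x

theorem G0_mul_coe (g h : G0) (x : V7) :
    ((g * h).1 : Matrix I7 I7 F3) *ᵥ x = (g.1 : Matrix I7 I7 F3) *ᵥ ((h.1 : Matrix I7 I7 F3) *ᵥ x) := by
  rw [mulVec_mulVec]
  rfl

theorem conj_tG (g : G0) (v : V7) (hv : Q7 v = 2) (w : V7) (hw : Q7 w = 2)
    (h : (g.1 : Matrix I7 I7 F3) *ᵥ v = w ∨ (g.1 : Matrix I7 I7 F3) *ᵥ v = -w) :
    g * tG v hv = tG w hw * g := by
  apply G0_ext
  intro x
  rw [G0_mul_coe, G0_mul_coe, tG_coe, tG_coe, tM_mulVec, tM_mulVec]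
  unfold tf
  rw [mulVec_sub, mulVec_neg, mulVec_smul, ← G0_Bf g x v]
  rcases h with h | h
  · rw [h]
  · rw [h]
    have : Bf ((g.1 : Matrix I7 I7 F3) *ᵥ x) (-w) = -Bf ((g.1 : Matrix I7 I7 F3) *ᵥ x) w := by
      have := Bf_smul_right (-1) ((g.1 : Matrix I7 I7 F3) *ᵥ x) w
      simpa using this
    rw [this]
    simp

theorem eq_or_neg_of_tG {v w : V7} (hv : Q7 v = 2) (hw : Q7 w = 2) (h : tG v hv = tG w hw) :
    v = w ∨ v = -w := by
  have h1 : tM v = tM w := congrArg (fun g : G0 => (g.1 : Matrix I7 I7 F3)) h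
  have h2 : tf v v = tf w v := by rw [← tM_mulVec, ← tM_mulVec, h1]
  unfold tf at h2
  rw [Bf_self, hv] at h2
  have h4 : (2 * 2 : F3) = 1 := by decide
  rw [h4, one_smul] at h2
  have h5 : v = Bf v w • w := by
    funext i
    have := congrFun h2 i
    simp only [Pi.sub_apply, Pi.neg_apply, Pi.smul_apply, smul_eq_mul] at this ⊢
    linear_combination (-1 : F3) * this
  have key : ∀ b : F3, b = 0 ∨ b = 1 ∨ b = -1 := by decide
  rcases key (Bf v w) with hb | hb | hb
  · rw [hb, zero_smul] at h5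
    rw [h5] at hv
    have h0 : Q7 0 = 0 := by simp [Cfsg.quadFormOdd]
    rw [h0] at hv
    exact absurd hv (by decide)
  · left; rw [hb, one_smul] at h5; exact h5
  · right; rw [hb] at h5; simpa using h5

end Cfsg.Agent.Lib.Helper19.O7
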