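import Cfsg.Agent.Lib.Helper19.O7.Refl
import Cfsg.Agent.Lib.Helper19.O7.Data
import Cfsg.Agent.Lib.Helper19.TC2S

/-! Coded vectors. -/

set_option autoImplicit false
set_option maxRecDepth 1000000

namespace Cfsg.Agent.Lib.Helper19.O7

open Cfsg.Agent.Lib.Helper19.TCS
open Cfsg.Agent.Lib.Helper19.TC2 (strict strict_eq)

def d3 (n : ℕ) : F3 := (⟨n % 3, Nat.mod_lt _ (by decide)⟩ : Fin 3)

def v3 (a : F3) : ℕ := (show Fin 3 from a).1

theorem v3_lt (a : F3) : v3 a < 3 := (show Fin 3 from a).2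

theorem d3_v3 (a : F3) (n : ℕ) (h : n % 3 = v3 a) : d3 n = a := Fin.ext h

def dec7 (c : ℕ) : V7
  | .inl _ => d3 c
  | .inr (.inl 0) => d3 (c / 3)
  | .inr (.inl 1) => d3 (c / 9)
  | .inr (.inl 2) => d3 (c / 27)
  | .inr (.inr 0) => d3 (c / 81)
  | .inr (.inr 1) => d3 (c / 243)
  | .inr (.inr 2) => d3 (c / 729)

def enc7 (v : V7) : ℕ :=
  v3 (v (.inl ())) + 3 * v3 (v (.inr (.inl 0))) + 9 * v3 (v (.inr (.inl 1)))
    + 27 * v3 (v (.inr (.inl 2))) + 81 * v3 (v (.inr (.inr 0))) + 243 * v3 (v (.inr (.inr 1)))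
    + 729 * v3 (v (.inr (.inr 2)))

theorem enc7_lt (v : V7) : enc7 v < 2187 := by
  have h0 := v3_lt (v (.inl ()))
  have h1 := v3_lt (v (.inr (.inl 0)))
  have h2 := v3_lt (v (.inr (.inl 1)))
  have h3 := v3_lt (v (.inr (.inl 2)))
  have h4 := v3_lt (v (.inr (.inr 0)))
  have h5 := v3_lt (v (.inr (.inr 1)))
  have h6 := v3_lt (v (.inr (.inr 2)))
  unfold enc7
  omega

theorem dec7_enc7 (v : V7) : dec7 (enc7 v) = v := by
  have h0 := v3_lt (v (.inl ()))
  have h1 := v3_lt (v (.inr (.inl 0)))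
  have h2 := v3_lt (v (.inr (.inl 1)))
  have h3 := v3_lt (v (.inr (.inl 2)))
  have h4 := v3_lt (v (.inr (.inr 0)))
  have h5 := v3_lt (v (.inr (.inr 1)))
  have h6 := v3_lt (v (.inr (.inr 2)))
  funext i
  rcases i with i | i | i
  · exact d3_v3 (v (.inl ())) _ (by unfold enc7; omega)
  · fin_cases i
    · exact d3_v3 (v (.inr (.inl 0))) _ (by unfold enc7; omega)
    · exact d3_v3 (v (.inr (.inl 1))) _ (by unfold enc7; omega)
    · exact d3_v3 (v (.inr (.inl 2))) _ (by unfold enc7; omega)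
  · fin_cases i
    · exact d3_v3 (v (.inr (.inr 0))) _ (by unfold enc7; omega)
    · exact d3_v3 (v (.inr (.inr 1))) _ (by unfold enc7; omega)
    · exact d3_v3 (v (.inr (.inr 2))) _ (by unfold enc7; omega)

/-- the vector of a point -/
def vt (j : ℕ) : V7 := dec7 (fld 12 4095 tVT j)

/-- the index of a coded vector -/
def ixc (c : ℕ) : ℕ := fld 12 4095 tIDX c

/-- the action of a negative reflection on codes -/
def tc (a c : ℕ) : ℕ := enc7 (tf (vt a) (dec7 c))

theorem dec7_tc (a c : ℕ) : dec7 (tc a c) = tf (vt a) (dec7 c) := dec7_enc7 _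

/-- the action of a word on codes -/
def appc (w : List ℕ) (c : ℕ) : ℕ := List.rec c (fun k _ ih => strict (tc (selN ptl k)) ih) w

theorem appc_cons (k : ℕ) (w : List ℕ) (c : ℕ) :
    appc (k :: w) c = tc (selN ptl k) (appc w c) := by
  show strict (tc (selN ptl k)) (appc w c) = _
  rw [strict_eq]

end Cfsg.Agent.Lib.Helper19.O7
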